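import Mathlib
import Cfsg.Agent.Lib.Helper50.FOT.Defs

/-!
# FOT package [CNT5]: if `5 ∥ |H|` there are `4 * n_5` elements of order 5
-/

set_option autoImplicit false

namespace Cfsg.Agent.Lib.Helper23.FOT

open Cfsg.Agent.Lib.Helper50.FOT

universe u

theorem pkgCnt5 : PkgCnt5.{u} := by
  intro H _ _ h5 h25
  classical
  haveI : Fact (Nat.Prime 5) := ⟨by norm_num⟩
  haveI : Fintype (Sylow 5 H) := Fintype.ofFinite _
  have hn : Nat.card H ≠ 0 := Nat.card_pos.ne'
  have hfact : (Nat.card H).factorization 5 = 1 := by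
    have h1 : 1 ≤ (Nat.card H).factorization 5 :=
      (Nat.Prime.dvd_iff_one_le_factorization (by norm_num) hn).mp h5
    have h2 : ¬ 2 ≤ (Nat.card H).factorization 5 := by
      intro h
      apply h25
      have h3 := (Nat.Prime.pow_dvd_iff_le_factorization (by norm_num : Nat.Prime 5) hn).mpr h
      simpa using h3
    omega
  have hP : ∀ P : Sylow 5 H, Nat.card (P : Subgroup H) = 5 := by
    intro P
    rw [Sylow.card_eq_multiplicity, hfact]; norm_num
  have hord : ∀ (P : Sylow 5 H) (y : H), y ∈ (P : Subgroup H) → y ≠ 1 → orderOf y = 5 := by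
    intro P y hy hy1
    have hdvd : orderOf y ∣ 5 := by
      have h1 := orderOf_dvd_natCard (⟨y, hy⟩ : (P : Subgroup H))
      rw [hP P] at h1
      rwa [Subgroup.orderOf_mk] at h1
    rcases (Nat.dvd_prime (by norm_num)).mp hdvd with h | h
    · exact absurd (orderOf_eq_one_iff.mp h) hy1
    · exact h
  have hz : ∀ (P : Sylow 5 H) (y : H), y ∈ (P : Subgroup H) → y ≠ 1 →
      Subgroup.zpowers y = (P : Subgroup H) := by
    intro P y hy hy1
    apply Subgroup.eq_of_le_of_card_ge (Subgroup.zpowers_le.mpr hy)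
    rw [hP P, Nat.card_zpowers, hord P y hy hy1]
  have hex : ∀ y : H, orderOf y = 5 → ∃ P : Sylow 5 H, y ∈ (P : Subgroup H) := by
    intro y hy
    have hpg : IsPGroup 5 (Subgroup.zpowers y) := by
      apply IsPGroup.of_card (n := 1)
      rw [Nat.card_zpowers, hy]; norm_num
    obtain ⟨P, hle⟩ := hpg.exists_le_sylow
    exact ⟨P, hle (Subgroup.mem_zpowers y)⟩
  have hne : ∀ y : H, orderOf y = 5 → y ≠ 1 := by
    intro y hy h1
    rw [h1, orderOf_one] at hy
    norm_num at hy
  let e : {y : H // orderOf y = 5} ≃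
      Σ P : Sylow 5 H, {y : H // y ∈ (P : Subgroup H) ∧ y ≠ 1} :=
    { toFun := fun y => ⟨Classical.choose (hex y.1 y.2),
        ⟨y.1, Classical.choose_spec (hex y.1 y.2), hne y.1 y.2⟩⟩
      invFun := fun z => ⟨z.2.1, hord z.1 z.2.1 z.2.2.1 z.2.2.2⟩
      left_inv := fun y => rfl
      right_inv := by
        rintro ⟨P, ⟨y, hyP, hy1⟩⟩
        apply Sigma.subtype_ext
        · apply Sylow.ext
          have h1 := hz P y hyP hy1
          have h2 := hz (Classical.choose (hex y (hord P y hyP hy1))) y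
            (Classical.choose_spec (hex y (hord P y hyP hy1))) hy1
          exact h2.symm.trans h1
        · rfl }
  rw [Nat.card_congr e, Nat.card_sigma]
  have h4 : ∀ P : Sylow 5 H, Nat.card {y : H // y ∈ (P : Subgroup H) ∧ y ≠ 1} = 4 := by
    intro P
    have h1 : Nat.card {y : H // y ∈ (P : Subgroup H) ∧ y ≠ 1}
        = (((P : Subgroup H) : Set H) \ {1}).ncard := by
      rw [← Nat.card_coe_set_eq]
      rfl
    rw [h1, Set.ncard_diff_singleton_of_mem (Subgroup.one_mem _)]
    have h2 : (((P : Subgroup H) : Set H)).ncard = 5 := by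
      rw [← Nat.card_coe_set_eq]; exact hP P
    rw [h2]
  simp only [h4, Finset.sum_const, Finset.card_univ, smul_eq_mul]
  rw [Nat.card_eq_fintype_card, mul_comm]

end Cfsg.Agent.Lib.Helper23.FOT
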